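import Cfsg.Agent.Blocks.Orth.Schur
import Cfsg.Agent.Blocks.Basic.Omega
import Cfsg.Agent.Blocks.Basic.Local
import Cfsg.Agent.Chars.Basic.Orthogonality
import Cfsg.Agent.Chars.Basic.ClassSum
import Cfsg.Agent.Chars.Induced.Extension
import Cfsg.Agent.Chars.Induced.Covering
import Cfsg.Agent.Constrained.HallHigman
import Cfsg.Agent.Solvable.SchurZassenhaus

/-!
# Osima's converse for `p`-solvable groups

A convolution idempotent class function vanishing on the `p`-singular elements of a `p`-solvable
group has local values; hence a set of characters whose degree-weighted sum vanishes there is a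
union of blocks.
-/

set_option autoImplicit false

namespace CfsgLib.Blocks.Osima

open Cfsg CfsgLib
open scoped ComplexConjugate

universe u

variable {G : Type u} [Group G]

/-- An idempotent class function vanishing on the `p`-singular elements. -/
structure Good [Fintype G] (p : ℕ) (e : G → ℂ) : Prop where
  class_fun : IsClassFunction G e
  idem : ∀ x : G, ∑ z, e z * e (z⁻¹ * x) = e x
  vanish : ∀ x : G, p ∣ orderOf x → e x = 0

/-- Convolution with a function on a subgroup. -/
noncomputable def cvl (N : Subgroup G) [Fintype N] (a : N → ℂ) (f : G → ℂ) (x : G) : ℂ :=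
  ∑ n : N, a n * f ((n : G)⁻¹ * x)

/-- The function of the idempotent of an irreducible character. -/
noncomputable def idemFun {H : Type u} [Group H] (θ : H → ℂ) (n : H) : ℂ :=
  θ 1 / (Nat.card H : ℂ) * θ n⁻¹

theorem comm_apply {e : G → ℂ} (he : IsClassFunction G e) (a b : G) : e (a * b) = e (b * a) := by
  rw [← he (a * b) b]
  group

theorem idemFun_conv {H : Type u} [Group H] [Fintype H] [DecidableEq (IrrCharacter H)]
    (θ η : IrrCharacter H) (j : H) :
    ∑ k, idemFun (θ : H → ℂ) k * idemFun (η : H → ℂ) (k⁻¹ * j) =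
      if θ = η then idemFun (θ : H → ℂ) j else 0 := by
  classical
  have h := sum_irrCharacter_convolution θ η j⁻¹
  have e : ∑ k, idemFun (θ : H → ℂ) k * idemFun (η : H → ℂ) (k⁻¹ * j) =
      (θ : H → ℂ) 1 / (Nat.card H : ℂ) * ((η : H → ℂ) 1 / (Nat.card H : ℂ)) *
        ∑ z, (θ : H → ℂ) z * (η : H → ℂ) (z⁻¹ * j⁻¹) := by
    rw [Finset.mul_sum]
    refine Fintype.sum_equiv (Equiv.inv H) _ _ fun k => ?_
    simp only [idemFun, Equiv.inv_apply, inv_inv, mul_inv_rev]
    rw [irrCharacter_mul_comm η j⁻¹ k]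
    ring
  rw [e, h]
  have hc : (Nat.card H : ℂ) ≠ 0 := Nat.cast_ne_zero.2 Nat.card_pos.ne'
  split_ifs with h1
  · subst h1
    have := irrCharacter_one_ne_zero θ
    rw [idemFun]
    field_simp
  · rw [mul_zero]

theorem sum_idemFun {H : Type u} [Group H] [Finite H] [DecidableEq H]
    (n : H) : ∑ θ : IrrCharacter H, idemFun (θ : H → ℂ) n = if n = 1 then 1 else 0 := by
  simp only [idemFun, div_mul_eq_mul_div]
  rw [← Finset.sum_div]
  have := Chars.sum_irr_map_one_mul (G := H) n⁻¹
  simp only [inv_eq_one] at this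
  rw [this]
  split_ifs
  · exact div_self (Nat.cast_ne_zero.2 Nat.card_pos.ne')
  · exact zero_div _

variable [Fintype G] {p : ℕ} {M : Ideal AlgInt} {e : G → ℂ}

theorem cvl_right (he : IsClassFunction G e) (N : Subgroup G) [Fintype N] (a : N → ℂ) (x : G) :
    cvl N a e x = ∑ n : N, a n * e (x * (n : G)⁻¹) :=
  Finset.sum_congr rfl fun n _ => by rw [comm_apply he]

/-- A good function is real in the sense of the group algebra. -/
theorem Good.exists_set (he : Good p e) :
    ∃ S : Finset (IrrCharacter G),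
      ∀ x, e x = (Nat.card G : ℂ)⁻¹ * ∑ χ ∈ S, (χ : G → ℂ) 1 * (χ : G → ℂ) x := by
  classical
  set c : IrrCharacter G → ℂ := fun χ => classInner e (χ : G → ℂ) with hc
  have hexp : ∀ g, e g = ∑ χ, c χ * (χ : G → ℂ) g := Chars.eq_sum_classInner_mul he.class_fun
  have hG : (Nat.card G : ℂ) ≠ 0 := Nat.cast_ne_zero.2 Nat.card_pos.ne'
  have hsq : ∀ g, e g = ∑ χ, c χ ^ 2 * (Nat.card G : ℂ) / (χ : G → ℂ) 1 * (χ : G → ℂ) g := by
    intro g
    rw [← he.idem g]
    calc ∑ z, e z * e (z⁻¹ * g) = ∑ z, ∑ χ, ∑ ψ,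
          c χ * c ψ * ((χ : G → ℂ) z * (ψ : G → ℂ) (z⁻¹ * g)) := by
          refine Finset.sum_congr rfl fun z _ => ?_
          rw [hexp z, hexp (z⁻¹ * g), Finset.sum_mul_sum]
          exact Finset.sum_congr rfl fun χ _ => Finset.sum_congr rfl fun ψ _ => by ring
      _ = ∑ χ, ∑ ψ, c χ * c ψ * ∑ z, (χ : G → ℂ) z * (ψ : G → ℂ) (z⁻¹ * g) := by
          rw [Finset.sum_comm]
          refine Finset.sum_congr rfl fun χ _ => ?_
          rw [Finset.sum_comm]
          exact Finset.sum_congr rfl fun ψ _ => (Finset.mul_sum _ _ _).symm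
      _ = _ := by
          refine Finset.sum_congr rfl fun χ _ => ?_
          rw [Finset.sum_eq_single χ (fun ψ _ h => by
            rw [sum_irrCharacter_convolution, if_neg (Ne.symm h), mul_zero])
            (fun h => absurd (Finset.mem_univ χ) h), sum_irrCharacter_convolution, if_pos rfl]
          ring
  have hcoef : ∀ χ, c χ = c χ ^ 2 * (Nat.card G : ℂ) / (χ : G → ℂ) 1 := by
    intro χ
    have h : e = ∑ χ : IrrCharacter G,
        (c χ ^ 2 * (Nat.card G : ℂ) / (χ : G → ℂ) 1) • (χ : G → ℂ) := by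
      funext g
      rw [hsq g, Finset.sum_apply]
      exact Finset.sum_congr rfl fun ψ _ => rfl
    conv_lhs => rw [hc]
    simp only
    conv_lhs => rw [h]
    rw [Chars.classInner_sum_smul]
  refine ⟨Finset.univ.filter fun χ => c χ ≠ 0, fun x => ?_⟩
  rw [hexp x, Finset.mul_sum, Finset.sum_filter]
  refine Finset.sum_congr rfl fun χ _ => ?_
  by_cases h0 : c χ = 0
  · simp [h0]
  rw [if_pos h0]
  have h1 := hcoef χ
  have hne := irrCharacter_one_ne_zero χ
  have h2 : c χ * (Nat.card G : ℂ) = (χ : G → ℂ) 1 := by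
    refine mul_left_cancel₀ h0 ?_
    calc c χ * (c χ * (Nat.card G : ℂ)) =
          c χ ^ 2 * (Nat.card G : ℂ) / (χ : G → ℂ) 1 * (χ : G → ℂ) 1 := by field_simp
      _ = c χ * (χ : G → ℂ) 1 := by rw [← h1]
  rw [← h2]
  field_simp

theorem Good.star (he : Good p e) (x : G) : e x⁻¹ = conj (e x) := by
  obtain ⟨S, hS⟩ := he.exists_set
  rw [hS, hS, map_mul, map_inv₀, map_natCast, map_sum]
  congr 1
  refine Finset.sum_congr rfl fun χ _ => ?_
  rw [map_mul, Chars.conj_map_one (Chars.isCharacter_coe χ),
    ← Chars.map_inv_eq_conj (Chars.isCharacter_coe χ)]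

/-- In a group of order prime to `p` good functions are local. -/
theorem Good.local_of_not_dvd (hM : IsPModular p M) (he : Good p e) (hp : ¬ p ∣ Nat.card G)
    (x : G) : MemLocalRing M (e x) := by
  have := isMaximal_of_isPModular hM
  obtain ⟨S, hS⟩ := he.exists_set
  rw [hS, ← mem_localRing]
  refine mul_mem (mem_localRing.2 (memLocalRing_inv_natCast hM hp)) (sum_mem fun χ _ => ?_)
  exact mul_mem (mem_localRing.2 (memLocalRing_of_isIntegral
      (Chars.isIntegral_apply (Chars.isCharacter_coe χ) 1)))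
    (mem_localRing.2 (memLocalRing_of_isIntegral
      (Chars.isIntegral_apply (Chars.isCharacter_coe χ) x)))

/-- A good function supported on a subgroup is good there. -/
theorem Good.restrict (he : Good p e) (C : Subgroup G) [Fintype C]
    (hC : ∀ x, e x ≠ 0 → x ∈ C) : Good p (fun c : C => e c) where
  class_fun g h := by
    show e ((h * g * h⁻¹ : C) : G) = e g
    push_cast
    exact he.class_fun g h
  idem x := by
    classical
    have h := he.idem (x : G)
    rw [← Finset.sum_subset (Finset.subset_univ (Finset.univ.filter fun z => z ∈ C))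
      (fun z _ hz => by
        rw [Finset.mem_filter] at hz
        rw [show e z = 0 by by_contra h0; exact hz ⟨Finset.mem_univ _, hC z h0⟩, zero_mul]),
      Finset.sum_subtype (p := fun z => z ∈ C) _ (fun z => by simp)] at h
    exact h
  vanish x hx := he.vanish x (by rwa [Subgroup.orderOf_coe])

/-- The product with an idempotent function of a subgroup is idempotent. -/
theorem conv_cvl (he : Good p e) (N : Subgroup G) [Fintype N] (a : N → ℂ)
    (ha : ∀ n : N, ∑ k, a k * a (k⁻¹ * n) = a n) (x : G) :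
    ∑ z, cvl N a e z * cvl N a e (z⁻¹ * x) = cvl N a e x := by
  classical
  have hEf : ∀ y, ∑ w, e w * cvl N a e (w⁻¹ * y) = cvl N a e y := by
    intro y
    calc ∑ w, e w * cvl N a e (w⁻¹ * y) = ∑ w, ∑ m : N, a m * (e w * e (w⁻¹ * (y * (m : G)⁻¹))) := by
          refine Finset.sum_congr rfl fun w _ => ?_
          rw [cvl_right he.class_fun, Finset.mul_sum]
          exact Finset.sum_congr rfl fun m _ => by rw [mul_assoc w⁻¹]; ring
      _ = _ := by
          rw [Finset.sum_comm, cvl_right he.class_fun]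
          exact Finset.sum_congr rfl fun m _ => by rw [← Finset.mul_sum, he.idem]
  calc ∑ z, cvl N a e z * cvl N a e (z⁻¹ * x)
      = ∑ n : N, a n * ∑ z, e ((n : G)⁻¹ * z) * cvl N a e (z⁻¹ * x) := by
        simp only [Finset.mul_sum]
        conv_rhs => rw [Finset.sum_comm]
        refine Finset.sum_congr rfl fun z _ => ?_
        rw [show cvl N a e z = ∑ n : N, a n * e ((n : G)⁻¹ * z) from rfl, Finset.sum_mul]
        exact Finset.sum_congr rfl fun n _ => by ring
    _ = ∑ n : N, a n * cvl N a e ((n : G)⁻¹ * x) := by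
        refine Finset.sum_congr rfl fun n _ => ?_
        congr 1
        rw [← hEf ((n : G)⁻¹ * x)]
        refine Fintype.sum_equiv (Equiv.mulLeft (n : G)⁻¹) _ _ fun z => ?_
        simp only [Equiv.coe_mulLeft]
        congr 2
        group
    _ = cvl N a e x := by
        simp only [cvl, Finset.mul_sum]
        calc ∑ n : N, ∑ m : N, a n * (a m * e ((m : G)⁻¹ * ((n : G)⁻¹ * x)))
            = ∑ n : N, ∑ j : N, a n * a (n⁻¹ * j) * e ((j : G)⁻¹ * x) := by
              refine Finset.sum_congr rfl fun n _ =>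
                Fintype.sum_equiv (Equiv.mulLeft n) _ _ fun m => ?_
              simp only [Equiv.coe_mulLeft, inv_mul_cancel_left, Subgroup.coe_mul, mul_inv_rev,
                mul_assoc]
          _ = _ := by
              rw [Finset.sum_comm]
              exact Finset.sum_congr rfl fun j _ => by rw [← Finset.sum_mul, ha]

/-- A translate of a singular element by a normal `p'`-subgroup is singular. -/
theorem singular_mul [Fact p.Prime] {N : Subgroup G} [N.Normal] (hN : ¬ p ∣ Nat.card N) {x : G}
    (hx : p ∣ orderOf x) (n : N) : p ∣ orderOf ((n : G) * x) := by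
  have hp : p.Prime := Fact.out
  by_contra h
  have h1 : ¬ p ∣ orderOf (x : G ⧸ N) := fun h1 => h (h1.trans (by
    have e : (((n : G) * x : G) : G ⧸ N) = (x : G ⧸ N) := by
      rw [QuotientGroup.mk_mul, (QuotientGroup.eq_one_iff (n : G)).2 n.2, one_mul]
    rw [← e]
    exact orderOf_map_dvd (QuotientGroup.mk' N) ((n : G) * x)))
  set o := orderOf (x : G ⧸ N)
  have hmem : x ^ o ∈ N := by
    rw [← QuotientGroup.eq_one_iff, QuotientGroup.mk_pow, pow_orderOf_eq_one]
  have hdvd : orderOf x ∣ o * Nat.card N := orderOf_dvd_of_pow_eq_one (by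
    rw [pow_mul]
    exact congrArg Subtype.val (pow_card_eq_one' (x := (⟨x ^ o, hmem⟩ : N))))
  rcases hp.dvd_mul.1 (hx.trans hdvd) with h2 | h2
  exacts [h1 h2, hN h2]

/-- `e` is the sum of its components. -/
theorem eq_sum_cvl (N : Subgroup G) [Fintype N] (x : G) :
    e x = ∑ θ : IrrCharacter N, cvl N (idemFun (θ : N → ℂ)) e x := by
  classical
  simp only [cvl]
  rw [Finset.sum_comm, Finset.sum_eq_single (1 : N)]
  · rw [← Finset.sum_mul, sum_idemFun, if_pos rfl, one_mul, OneMemClass.coe_one, inv_one, one_mul]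
  · intro n _ hn
    rw [← Finset.sum_mul, sum_idemFun, if_neg hn, zero_mul]
  · exact fun h => absurd (Finset.mem_univ _) h

/-- A component vanishes outside the inertia group. -/
theorem cvl_eq_zero_of_not_mem_inertia (he : Good p e) {N : Subgroup G} [N.Normal] [Fintype N]
    (θ : IrrCharacter N) {x : G} (hx : x ∉ Chars.Induced.inertia N (θ : N → ℂ)) :
    cvl N (idemFun (θ : N → ℂ)) e x = 0 := by
  classical
  set a := idemFun (θ : N → ℂ) with ha
  set η := Chars.Induced.conjIrr x θ with hη
  have hηne : η ≠ θ := fun h => hx (Chars.Induced.mem_inertia.2 (congrArg Subtype.val h))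
  have hidem : ∀ n : N, ∑ k, a k * a (k⁻¹ * n) = a n := fun n => by
    rw [ha, idemFun_conv, if_pos rfl]
  have hexp : cvl N a e x = ∑ m : N, ∑ k : N, a m * a k * e ((m : G)⁻¹ * (x * (k : G)⁻¹)) := by
    have h1 : cvl N a e x = ∑ n : N, a n * cvl N a e ((n : G)⁻¹ * x) := by
      simp only [cvl, Finset.mul_sum]
      conv_lhs => arg 2; ext j; rw [← hidem j, Finset.sum_mul]
      rw [Finset.sum_comm]
      refine Finset.sum_congr rfl fun n _ => ?_
      refine Fintype.sum_equiv (Equiv.mulLeft n⁻¹) _ _ fun j => ?_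
      simp only [Equiv.coe_mulLeft, Subgroup.coe_mul, InvMemClass.coe_inv, mul_inv_rev, inv_inv,
        mul_assoc, mul_inv_cancel_left]
    rw [h1]
    refine Finset.sum_congr rfl fun m _ => ?_
    rw [cvl_right he.class_fun, Finset.mul_sum]
    exact Finset.sum_congr rfl fun k _ => by rw [mul_assoc ((m : G)⁻¹)]; ring
  rw [hexp]
  calc ∑ m : N, ∑ k : N, a m * a k * e ((m : G)⁻¹ * (x * (k : G)⁻¹))
      = ∑ m : N, ∑ k : N, a m * idemFun (η : N → ℂ) k * e ((m : G)⁻¹ * ((k : G)⁻¹ * x)) := by
        refine Finset.sum_congr rfl fun m _ => ?_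
        refine Fintype.sum_equiv (MulAut.conjNormal x).toEquiv _ _ fun k => ?_
        have hk : idemFun (η : N → ℂ) (MulAut.conjNormal x k) = a k := by
          simp only [ha, idemFun, hη, Chars.Induced.conjIrr_coe, Chars.Induced.conjFun_apply]
          congr 1
          · congr 1
            exact congrArg _ (Subtype.ext (by simp))
          · exact congrArg _ (Subtype.ext (by simp [MulAut.conjNormal_apply, mul_assoc]))
        show _ = a m * idemFun (η : N → ℂ) (MulAut.conjNormal x k) * _
        rw [hk]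
        congr 2
        simp only [MulEquiv.toEquiv_eq_coe, EquivLike.coe_coe, MulAut.conjNormal_apply]
        group
    _ = ∑ j : N, (∑ k : N, idemFun (η : N → ℂ) k * a (k⁻¹ * j)) * e ((j : G)⁻¹ * x) := by
        rw [Finset.sum_comm]
        simp only [Finset.sum_mul]
        conv_rhs => rw [Finset.sum_comm]
        refine Finset.sum_congr rfl fun k _ => ?_
        refine Fintype.sum_equiv (Equiv.mulLeft k) _ _ fun m => ?_
        simp only [Equiv.coe_mulLeft, inv_mul_cancel_left, Subgroup.coe_mul, mul_inv_rev, mul_assoc]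
        ring
    _ = 0 := Finset.sum_eq_zero fun j _ => by rw [ha, idemFun_conv, if_neg hηne, zero_mul]

/-- A component is good on any subgroup carrying it and fixing the character. -/
theorem Good.component [Fact p.Prime] (he : Good p e) {N : Subgroup G} [N.Normal] [Fintype N]
    (hN : ¬ p ∣ Nat.card N) (θ : IrrCharacter N) (T : Subgroup G) [Fintype T]
    (hinv : ∀ t ∈ T, t ∈ Chars.Induced.inertia N (θ : N → ℂ))
    (hsupp : ∀ x, cvl N (idemFun (θ : N → ℂ)) e x ≠ 0 → x ∈ T) :
    Good p (fun t : T => cvl N (idemFun (θ : N → ℂ)) e t) where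
  class_fun g h := by
    show cvl N (idemFun (θ : N → ℂ)) e ((h * g * h⁻¹ : T) : G) = _
    push_cast
    refine (Fintype.sum_equiv (MulAut.conjNormal (h : G)).toEquiv _ _ fun n => ?_).symm
    have hfix : (θ : N → ℂ) (MulAut.conjNormal (h : G) n⁻¹) = (θ : N → ℂ) n⁻¹ := by
      have h1 := congrFun (Chars.Induced.mem_inertia.1 (hinv _ (inv_mem h.2))) n⁻¹
      rw [Chars.Induced.conjFun_apply] at h1
      refine Eq.trans (congrArg _ (Subtype.ext ?_)) h1
      simp [MulAut.conjNormal_apply, mul_assoc]
    show idemFun (θ : N → ℂ) n * _ = idemFun (θ : N → ℂ) (MulAut.conjNormal (h : G) n) * _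
    simp only [idemFun, ← map_inv, hfix]
    congr 1
    simp only [MulEquiv.toEquiv_eq_coe, EquivLike.coe_coe, MulAut.conjNormal_apply]
    rw [show ((h : G) * (n : G) * (h : G)⁻¹)⁻¹ * ((h : G) * g * (h : G)⁻¹) =
      (h : G) * ((n : G)⁻¹ * g) * (h : G)⁻¹ by group, he.class_fun]
  idem x := by
    classical
    have h := conv_cvl he N (idemFun (θ : N → ℂ))
      (fun n => by rw [idemFun_conv, if_pos rfl]) (x : G)
    rw [← Finset.sum_subset (Finset.subset_univ (Finset.univ.filter fun z => z ∈ T))
      (fun z _ hz => by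
        rw [Finset.mem_filter] at hz
        rw [show cvl N (idemFun (θ : N → ℂ)) e z = 0 by
          by_contra h0; exact hz ⟨Finset.mem_univ _, hsupp z h0⟩, zero_mul]),
      Finset.sum_subtype (p := fun z => z ∈ T) _ (fun z => by simp)] at h
    exact h
  vanish x hx := Finset.sum_eq_zero fun n _ => by
    rw [← InvMemClass.coe_inv, he.vanish _ (singular_mul hN (x := (x : G))
      (by rwa [Subgroup.orderOf_coe]) n⁻¹), mul_zero]

section Fintype

omit [Fintype G]

/-- Conjugate regular elements of a coset of a normal `p`-subgroup. -/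
theorem exists_conj_eq_mul [Finite G] [Fact p.Prime] {Q : Subgroup G} [Q.Normal]
    (hQ : IsPGroup p Q) {x q : G} (hq : q ∈ Q) (hx : ¬ p ∣ orderOf x)
    (hxq : ¬ p ∣ orderOf (x * q)) : ∃ u ∈ Q, u * x * u⁻¹ = x * q := by
  have hp : p.Prime := Fact.out
  obtain ⟨k, hk⟩ := IsPGroup.iff_card.1 hQ
  have hcop : ∀ y : G, ¬ p ∣ orderOf y → (Nat.card (Subgroup.zpowers y)).Coprime (Nat.card Q) :=
    fun y hy => by
      rw [Nat.card_zpowers, hk]
      exact ((hp.coprime_iff_not_dvd.2 hy).symm).pow_right k
  have hsup : Subgroup.zpowers x ⊔ Q = Subgroup.zpowers (x * q) ⊔ Q := by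
    refine le_antisymm (sup_le ?_ le_sup_right) (sup_le ?_ le_sup_right)
    · rw [Subgroup.zpowers_le]
      simpa using mul_mem (Subgroup.mem_sup_left (Subgroup.mem_zpowers (x * q)))
        (Subgroup.mem_sup_right (inv_mem hq) : q⁻¹ ∈ Subgroup.zpowers (x * q) ⊔ Q)
    · rw [Subgroup.zpowers_le]
      exact mul_mem (Subgroup.mem_sup_left (Subgroup.mem_zpowers x)) (Subgroup.mem_sup_right hq)
  haveI : Group.IsSolvable (Subgroup.zpowers x) := inferInstance
  obtain ⟨u, hu, hconj⟩ := CfsgLib.Solvable.exists_conj_of_sup_eq Q _ _ hsup (hcop x hx)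
    (hcop _ hxq) (Or.inr inferInstance)
  refine ⟨u, hu, ?_⟩
  have hmem : u * x * u⁻¹ ∈ Subgroup.zpowers (x * q) := by
    rw [← hconj]
    exact ⟨x, Subgroup.mem_zpowers x, rfl⟩
  have hd : (u * x * u⁻¹)⁻¹ * (x * q) ∈ Q := by
    rw [show (u * x * u⁻¹)⁻¹ * (x * q) = u * (x⁻¹ * u⁻¹ * x) * q by group]
    exact mul_mem (mul_mem hu (‹Q.Normal›.conj_mem' _ (inv_mem hu) x)) hq
  have hd' : (u * x * u⁻¹)⁻¹ * (x * q) ∈ Subgroup.zpowers (x * q) :=
    mul_mem (inv_mem hmem) (Subgroup.mem_zpowers _)
  have h1 : (u * x * u⁻¹)⁻¹ * (x * q) = 1 := by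
    have := Subgroup.inf_eq_bot_of_coprime (hcop _ hxq)
    rw [← Subgroup.mem_bot, ← this]
    exact ⟨hd', hd⟩
  exact inv_mul_eq_one.1 h1

end Fintype

/-- Trace orthogonality: for an irreducible representation of `N`,
`∑ tr (ρ n ∘ B) tr (C ∘ ρ n⁻¹) = |N| / d * tr (C ∘ B)`. -/
theorem sum_trace_mul_trace {N : Type u} [Group N] [Fintype N] {d : ℕ} (hd : 0 < d)
    (ρ : Representation ℂ N (Fin d → ℂ))
    (hsc : ∀ f : Module.End ℂ (Fin d → ℂ), (∀ n, f * ρ n = ρ n * f) → ∃ c : ℂ, f = c • 1)
    (B C : Module.End ℂ (Fin d → ℂ)) :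
    ∑ n : N, LinearMap.trace ℂ _ (ρ n * B) * LinearMap.trace ℂ _ (C * ρ n⁻¹) =
      (Nat.card N : ℂ) / d * LinearMap.trace ℂ _ (C * B) := by
  classical
  have key : ∑ n : N, LinearMap.trace ℂ _ (ρ n * B) • ρ n⁻¹ = ((Nat.card N : ℂ) / d) • B := by
    refine LinearMap.ext fun v => ?_
    -- the average of a rank one map
    have havg : ∀ (i : Fin d) (w : Fin d → ℂ),
        ∑ n : N, (ρ n w) i • ρ n⁻¹ v = ((Nat.card N : ℂ) / d * v i) • w := by
      intro i w
      let X : Module.End ℂ (Fin d → ℂ) := LinearMap.smulRight (LinearMap.proj i) v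
      obtain ⟨c, hc⟩ := hsc (∑ n : N, ρ n⁻¹ * X * ρ n) fun m => by
        rw [Finset.sum_mul, Finset.mul_sum]
        refine Fintype.sum_equiv (Equiv.mulRight m) _ _ fun n => ?_
        simp only [Equiv.coe_mulRight, mul_inv_rev, map_mul, mul_assoc]
        rw [← mul_assoc (ρ m) (ρ m⁻¹), ← map_mul ρ m m⁻¹, mul_inv_cancel, map_one, one_mul]
      have hc' : c * d = (Nat.card N : ℂ) * v i := by
        have h := congrArg (LinearMap.trace ℂ _) hc
        rw [map_smul, LinearMap.trace_one, Module.finrank_fin_fun, smul_eq_mul, map_sum] at h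
        rw [← h, Nat.card_eq_fintype_card, ← Finset.card_univ, ← nsmul_eq_mul]
        rw [← Finset.sum_const]
        refine Finset.sum_congr rfl fun n _ => ?_
        rw [LinearMap.trace_mul_comm, ← mul_assoc, ← map_mul, mul_inv_cancel, map_one, one_mul]
        simp only [X]
        rw [LinearMap.trace_smulRight]
        rfl
      have h := LinearMap.congr_fun hc w
      simp only [LinearMap.coe_sum, Finset.sum_apply, Module.End.mul_apply, LinearMap.smul_apply,
        Module.End.one_apply, X, LinearMap.smulRight_apply, LinearMap.coe_proj, Function.eval,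
        map_smul] at h
      rw [h]
      congr 1
      rw [div_mul_eq_mul_div, eq_div_iff (Nat.cast_ne_zero.2 hd.ne' : (d : ℂ) ≠ 0)]
      exact hc'
    have htr : ∀ f : Module.End ℂ (Fin d → ℂ), LinearMap.trace ℂ _ f = ∑ i, f (Pi.single i 1) i := by
      intro f
      rw [LinearMap.trace_eq_matrix_trace ℂ (Pi.basisFun ℂ (Fin d))]
      simp [Matrix.trace, LinearMap.toMatrix_apply]
    simp only [LinearMap.coe_sum, Finset.sum_apply, LinearMap.smul_apply, htr, Finset.sum_smul,
      Module.End.mul_apply]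
    rw [Finset.sum_comm, Finset.sum_congr rfl fun i _ => havg i (B (Pi.single i 1))]
    have hv : v = ∑ i, v i • (Pi.single i 1 : Fin d → ℂ) := pi_eq_sum_univ' v
    conv_rhs => rw [hv, map_sum, Finset.smul_sum]
    exact Finset.sum_congr rfl fun i _ => by rw [map_smul, smul_smul]
  calc ∑ n : N, LinearMap.trace ℂ _ (ρ n * B) * LinearMap.trace ℂ _ (C * ρ n⁻¹)
      = LinearMap.trace ℂ _ (C * ∑ n : N, LinearMap.trace ℂ _ (ρ n * B) • ρ n⁻¹) := by
        simp only [Finset.mul_sum, map_sum, mul_smul_comm, map_smul, smul_eq_mul]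
    _ = _ := by rw [key, mul_smul_comm, map_smul, smul_eq_mul]

open CfsgLib.Chars.Induced in
/-- A `G`-invariant extension of an invariant character to an overgroup of `p`-power index. -/
theorem exists_invariant_extension [Fact p.Prime] {N : Subgroup G} [N.Normal] [Fintype N]
    (hN : ¬ p ∣ Nat.card N) (L : Subgroup G) [L.Normal] [Fintype L] (hNL : N ≤ L)
    {k : ℕ} (hk : N.relIndex L = p ^ k) (θ : IrrCharacter N)
    (hinv : ∀ g : G, conjFun N g (θ : N → ℂ) = θ) :
    ∃ θL : IrrCharacter L, (∀ n : N, (θL : L → ℂ) (Subgroup.inclusion hNL n) = (θ : N → ℂ) n) ∧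
      ∀ (g : G) (l : L), (θL : L → ℂ) (MulAut.conjNormal g l) = (θL : L → ℂ) l := by
  classical
  set N' := N.subgroupOf L with hN'
  haveI : N'.Normal := Subgroup.normal_subgroupOf
  set e' := Subgroup.subgroupOfEquivOfLe hNL with he'
  set θ' : IrrCharacter N' := Chars.irrEquiv e'.symm θ with hθ'
  have hθ'v : ∀ x : N', (θ' : N' → ℂ) x = (θ : N → ℂ) (e' x) := fun x => rfl
  have hinv' : ∀ l : L, conjFun N' l (θ' : N' → ℂ) = θ' := by
    intro l
    funext x
    rw [conjFun_apply, hθ'v, hθ'v, ← congrFun (hinv (l : G)) (e' x), conjFun_apply]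
    exact congrArg _ (Subtype.ext rfl)
  have hidx : N'.index = p ^ k := hk
  have hcardN' : Nat.card N' = Nat.card N := Nat.card_congr e'.toEquiv
  have hθ'c := CfsgLib.Chars.isCharacter_coe θ'
  have hcop : Nat.Coprime N'.index (detOrder (θ' : N' → ℂ) * charDegree (θ' : N' → ℂ)) := by
    rw [hidx]
    refine Nat.Coprime.pow_left k ((Fact.out : p.Prime).coprime_iff_not_dvd.2 fun h => ?_)
    rcases (Fact.out : p.Prime).dvd_mul.1 h with h | h
    · exact hN (hcardN' ▸ h.trans (detOrder_dvd_card hθ'c))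
    · exact hN (hcardN' ▸ h.trans (Chars.charDegree_dvd_card θ'))
  obtain ⟨χ, hχ, hdet, huniq⟩ := exists_canonical_extension θ' hinv'
    (Chars.coe_charDegree θ').symm hcop
  refine ⟨χ, fun n => ?_, fun g => ?_⟩
  · rw [show Subgroup.inclusion hNL n = ((e'.symm n : N') : L) from Subtype.ext rfl, hχ, hθ'v,
      MulEquiv.apply_symm_apply]
  set φ : MulAut L := MulAut.conjNormal g
  obtain ⟨χ', hχ'⟩ : ∃ χ' : IrrCharacter L, ∀ l, (χ' : L → ℂ) l = (χ : L → ℂ) (φ l) :=
    ⟨⟨fun l => (χ : L → ℂ) (φ l), Chars.isIrrCharacter_comp_mulEquiv χ.2 φ⟩, fun l => rfl⟩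
  suffices χ' = χ from fun l => by rw [← hχ', this]
  refine huniq χ' (fun n => ?_) ?_
  · have hm : φ (n : L) ∈ N' := by
      show ((φ (n : L) : L) : G) ∈ N
      rw [MulAut.conjNormal_apply]
      exact ‹N.Normal›.conj_mem _ n.2 g
    rw [hχ', show φ (n : L) = ((⟨φ n, hm⟩ : N') : L) from rfl, hχ, hθ'v, hθ'v]
    have h := congrFun (hinv g⁻¹) (e' n)
    rw [conjFun_apply] at h
    refine Eq.trans (congrArg _ (Subtype.ext ?_)) h
    simp [φ, he', MulAut.conjNormal_apply]
  · obtain ⟨m, ρ, hρ, hρχ⟩ := id χ.2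
    have hρ' : Representation.character (ρ.comp φ.toMonoidHom : Representation ℂ L (Fin m → ℂ)) = (χ' : L → ℂ) := by
      funext l
      rw [hχ', ← hρχ]
      rfl
    have hdvd : detOrder (χ' : L → ℂ) ∣ detOrder (χ : L → ℂ) := by
      have hc := CfsgLib.Chars.isCharacter_coe χ
      have hc' := CfsgLib.Chars.isCharacter_coe χ'
      rw [detOrder_eq hc, detOrder_eq hc']
      refine orderOf_dvd_of_pow_eq_one (MonoidHom.ext fun l => ?_)
      have h1 : detHom hc' l = detHom hc (φ l) := Units.ext (by
        rw [detHom_apply, detHom_apply, detChar_eq_of_rep χ'.2 _ hρ',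
          detChar_eq_of_rep χ.2 ρ hρχ]
        rfl)
      rw [MonoidHom.pow_apply, h1, ← MonoidHom.pow_apply, pow_orderOf_eq_one]
      rfl
    rw [hdet] at hdvd
    exact Nat.Coprime.coprime_dvd_right (hdvd.trans (dvd_mul_right _ _)) hcop

open CfsgLib.Chars.Induced in
/-- For an invariant `θ`, a good function in the component of `θ` lives on `O_{p'}(G)`. -/
theorem eq_zero_of_not_mem_core [Fact p.Prime] (hsolv : IsPSolvable p G) (he : Good p e)
    {N : Subgroup G} [N.Normal] [Fintype N] (hNdef : N = pPrimeCore p G) (θ : IrrCharacter N)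
    (hinv : ∀ g : G, conjFun N g (θ : N → ℂ) = θ)
    (hθ : ∀ x, cvl N (idemFun (θ : N → ℂ)) e x = e x)
    {x : G} (hx : e x ≠ 0) : x ∈ N := by
  classical
  have hN : ¬ p ∣ Nat.card N := by rw [hNdef]; exact Constrained.pPrimeCore_not_dvd
  have hp : p.Prime := Fact.out
  set Q := pCore p (G ⧸ N) with hQdef
  have hQ : IsPGroup p Q := Constrained.isPGroup_pCore
  haveI hQn : Q.Normal := inferInstance
  set L := Q.comap (QuotientGroup.mk' N) with hLdef
  haveI : L.Normal := hQn.comap _
  have hNL : N ≤ L := fun n hn => by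
    rw [hLdef, Subgroup.mem_comap, QuotientGroup.mk'_apply, (QuotientGroup.eq_one_iff n).2 hn]
    exact one_mem _
  obtain ⟨k, hk⟩ : ∃ k, N.relIndex L = p ^ k := by
    obtain ⟨k, hk⟩ := IsPGroup.iff_card.1 hQ
    refine ⟨k, ?_⟩
    rw [Constrained.relIndex_eq_card_map, hLdef,
      Subgroup.map_comap_eq_self_of_surjective (QuotientGroup.mk'_surjective N), hk]
  letI := Fintype.ofFinite L
  obtain ⟨θL, hθL, hLinv⟩ := exists_invariant_extension hN L hNL hk θ hinv
  set d := charDegree (θ : N → ℂ) with hd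
  have hd0 : 0 < d := Chars.charDegree_pos θ
  have hθ1 : (θ : N → ℂ) 1 = d := (Chars.coe_charDegree θ).symm
  have hθL1 : (θL : L → ℂ) 1 = d := by rw [← hθ1, ← hθL 1, map_one]
  have hN0 : (Nat.card N : ℂ) ≠ 0 := Nat.cast_ne_zero.2 Nat.card_pos.ne'
  have hL0 : (Nat.card L : ℂ) ≠ 0 := Nat.cast_ne_zero.2 Nat.card_pos.ne'
  have hdC : (d : ℂ) ≠ 0 := Nat.cast_ne_zero.2 hd0.ne'
  -- regular elements of `L` lie in `N`
  have hLreg : ∀ y : G, y ∈ L → ¬ p ∣ orderOf y → y ∈ N := by
    intro y hy hreg
    rw [← QuotientGroup.eq_one_iff]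
    obtain ⟨j, hj⟩ := IsPGroup.iff_orderOf.1 hQ ⟨_, hy⟩
    rw [← Subgroup.orderOf_coe] at hj
    rcases j.eq_zero_or_pos with rfl | hj0
    · exact orderOf_eq_one_iff.1 hj
    · exact absurd ((dvd_pow_self p hj0.ne').trans (hj.symm.dvd.trans
        (orderOf_map_dvd (QuotientGroup.mk' N) y))) hreg
  -- the regular translates inside `L`
  set R : G → Finset L := fun y => Finset.univ.filter fun l : L => ¬ p ∣ orderOf (y * (l : G))
    with hR
  set F : G → ℂ := cvl L (idemFun (θL : L → ℂ)) e with hF
  have hFval : ∀ y : G, ¬ p ∣ orderOf y → F y = ((R y).card : ℂ) / (Nat.card L : ℂ) * e y := by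
    intro y hy
    -- a regular element: extend to `⟨y⟩ L`
    set K := Subgroup.zpowers y ⊔ L with hK
    have hLK : L ≤ K := le_sup_right
    have hyK : y ∈ K := Subgroup.mem_sup_left (Subgroup.mem_zpowers y)
    letI := Fintype.ofFinite K
    set LK := L.subgroupOf K with hLKdef
    haveI : LK.Normal := Subgroup.normal_subgroupOf
    haveI : IsCyclic (K ⧸ LK) := by
      refine isCyclic_of_surjective ((QuotientGroup.mk' LK).comp
        (Subgroup.inclusion (le_sup_left : Subgroup.zpowers y ≤ K))) ?_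
      intro q
      induction q using QuotientGroup.induction_on with
      | _ w =>
        obtain ⟨a, ha, b, hb, hab⟩ := Subgroup.mem_sup_of_normal_right.1
          (show (w : G) ∈ Subgroup.zpowers y ⊔ L from w.2)
        refine ⟨⟨a, ha⟩, ?_⟩
        rw [MonoidHom.comp_apply, QuotientGroup.mk'_apply, QuotientGroup.eq]
        show a⁻¹ * (w : G) ∈ L
        rw [← hab, inv_mul_cancel_left]
        exact hb
    set eK := Subgroup.subgroupOfEquivOfLe hLK with heK
    obtain ⟨χK, hχK⟩ := exists_extension_of_isCyclic (Chars.irrEquiv eK.symm θL) (fun w => by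
      funext l
      rw [conjFun_apply, Chars.irrEquiv_apply, Chars.irrEquiv_apply]
      rw [MulEquiv.symm_symm, ← hLinv (w : G)⁻¹ (eK l)]
      exact congrArg _ (Subtype.ext (by simp [heK, MulAut.conjNormal_apply])))
    have hχKL : ∀ l : L, (χK : K → ℂ) (Subgroup.inclusion hLK l) = (θL : L → ℂ) l := fun l => by
      rw [show Subgroup.inclusion hLK l = ((eK.symm l : LK) : K) from Subtype.ext rfl, hχK,
        Chars.irrEquiv_apply, MulEquiv.symm_symm, MulEquiv.apply_symm_apply]
    obtain ⟨m, σ, hσirr, hσ⟩ := id χK.2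
    have hm : m = d := by
      have h1 : (χK : K → ℂ) 1 = d := by rw [← hθL1, ← hχKL 1, map_one]
      rw [← hσ] at h1
      simpa using h1
    subst hm
    set ιN : N →* K := Subgroup.inclusion (hNL.trans hLK) with hιN
    set ρ : Representation ℂ N (Fin d → ℂ) := σ.comp ιN with hρ
    have hρc : ρ.character = (θ : N → ℂ) := by
      funext n
      show σ.character (ιN n) = _
      rw [hσ, ← hθL n, ← hχKL]
      rfl
    have hsc : ∀ f : Module.End ℂ (Fin d → ℂ), (∀ n, f * ρ n = ρ n * f) → ∃ c : ℂ, f = c • 1 := by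
      intro f hf
      obtain ⟨d', ρ₀, hρ₀, hρ₀c⟩ := id θ.2
      obtain ⟨E, hE⟩ := exists_intertwiner_unit ρ₀ hρ₀ ρ (by rw [hρc, hρ₀c])
      haveI := hρ₀
      obtain ⟨c, hc⟩ := exists_scalar_of_commute ρ₀ (E.symm.toLinearMap ∘ₗ f ∘ₗ E.toLinearMap)
        (fun n => LinearMap.ext fun v => by
          simp only [LinearMap.comp_apply, LinearEquiv.coe_coe]
          rw [hE, ← Module.End.mul_apply, hf, Module.End.mul_apply]
          apply E.injective
          rw [hE]
          simp)
      refine ⟨c, LinearMap.ext fun v => ?_⟩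
      have h := LinearMap.congr_fun hc (E.symm v)
      simp only [LinearMap.comp_apply, LinearEquiv.coe_coe, LinearEquiv.apply_symm_apply,
        LinearMap.smul_apply, LinearMap.id_coe, id_eq] at h
      have h' := congrArg E h
      rw [LinearEquiv.apply_symm_apply, map_smul, LinearEquiv.apply_symm_apply] at h'
      rw [h']
      simp
    -- the coset of `y` carries a multiple of the extended character
    set yK : K := ⟨y, hyK⟩ with hyK'
    set A : Module.End ℂ (Fin d → ℂ) := ∑ n : N, e (y * (n : G)) • ρ n with hA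
    obtain ⟨c, hc⟩ := hsc (σ yK * A) fun n => by
      rw [hA, Finset.mul_sum, Finset.sum_mul, Finset.mul_sum]
      refine Fintype.sum_equiv ((Equiv.mulRight n).trans
        (Equiv.mulLeft ((MulAut.conjNormal y⁻¹ n)⁻¹))) _ _ fun j => ?_
      simp only [Equiv.trans_apply, Equiv.coe_mulRight, Equiv.coe_mulLeft, mul_smul_comm,
        smul_mul_assoc, hρ, MonoidHom.comp_apply, ← map_mul]
      congr 1
      · rw [Subgroup.coe_mul, Subgroup.coe_mul, InvMemClass.coe_inv, MulAut.conjNormal_apply,
          inv_inv, ← he.class_fun (y * (j : G)) (n : G)⁻¹]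
        congr 1
        group
      · congr 1
        refine Subtype.ext ?_
        simp [hιN, hyK', MulAut.conjNormal_apply, mul_assoc]
    have hA' : A = c • σ yK⁻¹ := by
      calc A = σ yK⁻¹ * (σ yK * A) := by rw [← mul_assoc, ← map_mul, inv_mul_cancel, map_one, one_mul]
        _ = _ := by rw [hc, mul_smul_comm, mul_one]
    set c' : ℂ := c * d / Nat.card N with hc'
    have hcoset : ∀ n : N, e (y * (n : G)) = c' * (χK : K → ℂ) (yK * ιN n)⁻¹ := by
      intro n
      have h1 : e (y * (n : G)) =
          (d : ℂ) / Nat.card N * LinearMap.trace ℂ _ (ρ n⁻¹ * A) := by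
        rw [← hθ, cvl_right he.class_fun, hA, Finset.mul_sum, map_sum, Finset.mul_sum]
        refine Fintype.sum_equiv ((Equiv.inv N).trans (Equiv.mulLeft n)) _ _ fun m => ?_
        simp only [Equiv.trans_apply, Equiv.inv_apply, Equiv.coe_mulLeft, mul_smul_comm, map_smul,
          smul_eq_mul, ← map_mul, idemFun]
        rw [show LinearMap.trace ℂ _ (ρ (n⁻¹ * (n * m⁻¹))) = (θ : N → ℂ) m⁻¹ by
          rw [inv_mul_cancel_left, ← hρc]; rfl, hθ1, Subgroup.coe_mul, InvMemClass.coe_inv,
          mul_assoc y]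
        ring
      rw [h1, hA', mul_smul_comm, map_smul, smul_eq_mul, hc', ← hσ,
        show ρ n⁻¹ * σ yK⁻¹ = σ ((yK * ιN n)⁻¹) by
          rw [mul_inv_rev, map_mul, hρ, MonoidHom.comp_apply, map_inv]]
      show _ = _ * LinearMap.trace ℂ _ (σ _)
      ring
    -- every regular element of `y L`
    have hreg : ∀ l : L, l ∈ R y →
        e (y * (l : G)) = c' * (χK : K → ℂ) (yK * Subgroup.inclusion hLK l)⁻¹ := by
      intro l hl
      rw [hR, Finset.mem_filter] at hl
      have hq : ((l : G) : G ⧸ N) ∈ Q := l.2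
      obtain ⟨u, hu, hconj⟩ := exists_conj_eq_mul hQ hq
        (x := (y : G ⧸ N)) (fun h => hy (h.trans (orderOf_map_dvd (QuotientGroup.mk' N) y)))
        (fun h => hl.2 (h.trans (by
          rw [← QuotientGroup.mk_mul]; exact orderOf_map_dvd (QuotientGroup.mk' N) _)))
      obtain ⟨u, rfl⟩ := QuotientGroup.mk_surjective u
      have hmem : y⁻¹ * (u⁻¹ * (y * l) * u) ∈ N := by
        rw [← QuotientGroup.eq_one_iff]
        simp only [QuotientGroup.mk_mul, QuotientGroup.mk_inv]
        rw [← hconj]
        group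
      have huL : u ∈ L := hu
      set n : N := ⟨_, hmem⟩ with hn
      have h1 : e (y * (l : G)) = e (y * (n : G)) := by
        rw [← he.class_fun (y * (l : G)) u⁻¹]
        congr 1
        rw [hn]
        show u⁻¹ * (y * (l : G)) * u⁻¹⁻¹ = y * (y⁻¹ * (u⁻¹ * (y * l) * u))
        group
      have h2 : (yK * ιN n)⁻¹ = (⟨u, hLK huL⟩ : K)⁻¹ * (yK * Subgroup.inclusion hLK l)⁻¹ *
          (⟨u, hLK huL⟩ : K)⁻¹⁻¹ := by
        refine Subtype.ext ?_
        push_cast
        simp only [hιN, hyK', Subgroup.coe_inclusion, hn]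
        group
      rw [h1, hcoset, h2, irrCharacter_conj]
    have hsingR : ∀ l : L, l ∉ R y → e (y * (l : G)) = 0 := fun l hl =>
      he.vanish _ (by simpa [hR] using hl)
    have hy1 : e y = c' * (χK : K → ℂ) yK⁻¹ := by simpa using hcoset 1
    -- the sum over `L`
    have hstable : ∀ (l : L) (n : N), l * Subgroup.inclusion hNL n ∈ R y ↔ l ∈ R y := by
      intro l n
      simp only [hR, Finset.mem_filter, Finset.mem_univ, true_and, Subgroup.coe_mul,
        Subgroup.coe_inclusion, ← mul_assoc]
      refine not_congr ⟨fun h => ?_, fun h => ?_⟩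
      · have h' := singular_mul hN h ⟨_, ‹N.Normal›.conj_mem _ (inv_mem n.2) (y * (l : G))⟩
        simpa [mul_assoc] using h'
      · have h' := singular_mul hN h ⟨_, ‹N.Normal›.conj_mem _ n.2 (y * (l : G))⟩
        simpa [mul_assoc] using h'
    have hsum : F y = (d : ℂ) / Nat.card L * ∑ l ∈ R y, c' *
        ((χK : K → ℂ) (Subgroup.inclusion hLK l) *
          (χK : K → ℂ) (yK * Subgroup.inclusion hLK l)⁻¹) := by
      rw [hF, cvl_right he.class_fun, Finset.mul_sum]
      refine (Fintype.sum_equiv (Equiv.inv L) _ (fun l : L =>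
        (d : ℂ) / Nat.card L * (θL : L → ℂ) l * e (y * (l : G))) fun l => ?_).trans ?_
      · simp only [idemFun, Equiv.inv_apply, InvMemClass.coe_inv, hθL1]
      rw [← Finset.sum_subset (Finset.subset_univ (R y)) fun l _ hl => by
        rw [hsingR l hl, mul_zero]]
      refine Finset.sum_congr rfl fun l hl => ?_
      rw [hreg l hl, hχKL]
      ring
    have havg : ∑ l ∈ R y, ((χK : K → ℂ) (Subgroup.inclusion hLK l) *
          (χK : K → ℂ) (yK * Subgroup.inclusion hLK l)⁻¹) =
        ((R y).card : ℂ) / d * (χK : K → ℂ) yK⁻¹ := by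
      set T : L → ℂ := fun l => (χK : K → ℂ) (Subgroup.inclusion hLK l) *
          (χK : K → ℂ) (yK * Subgroup.inclusion hLK l)⁻¹ with hT
      have hinner : ∀ l : L, ∑ n : N, T (l * Subgroup.inclusion hNL n) =
          (Nat.card N : ℂ) / d * (χK : K → ℂ) yK⁻¹ := by
        intro l
        set lK := Subgroup.inclusion hLK l with hlK
        have e1 : ∀ n : N, T (l * Subgroup.inclusion hNL n) =
            LinearMap.trace ℂ _ (ρ n * σ lK) * LinearMap.trace ℂ _ (σ (yK * lK)⁻¹ * ρ n⁻¹) := by
          intro n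
          have e2 : Subgroup.inclusion hLK (l * Subgroup.inclusion hNL n) = lK * ιN n :=
            Subtype.ext rfl
          rw [hT]
          simp only [e2, hρ, MonoidHom.comp_apply, ← map_mul]
          rw [← hσ, map_inv, ← mul_inv_rev]
          congr 1
          · show LinearMap.trace ℂ _ (σ (lK * ιN n)) = _
            rw [map_mul σ, map_mul σ, LinearMap.trace_mul_comm]
          · show LinearMap.trace ℂ _ (σ ((yK * (lK * ιN n))⁻¹)) = _
            rw [← mul_assoc, mul_inv_rev (yK * lK) (ιN n), mul_inv_rev (ιN n) (yK * lK), map_mul σ, map_mul σ,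
              LinearMap.trace_mul_comm]
        rw [Finset.sum_congr rfl fun n _ => e1 n, sum_trace_mul_trace hd0 ρ hsc, ← map_mul, ← hσ]
        congr 1
        show LinearMap.trace ℂ _ (σ _) = LinearMap.trace ℂ _ (σ yK⁻¹)
        rw [mul_inv_rev, map_mul σ, map_mul σ, LinearMap.trace_mul_comm, ← mul_assoc, ← map_mul σ,
          mul_inv_cancel, map_one, one_mul]
      have h2 : ∑ n : N, ∑ l ∈ R y, T (l * Subgroup.inclusion hNL n) =
          ∑ n : N, ∑ l ∈ R y, T l := by
        refine Finset.sum_congr rfl fun n _ => ?_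
        refine Finset.sum_equiv (Equiv.mulRight (Subgroup.inclusion hNL n)) (fun l => ?_)
          fun l _ => rfl
        rw [Equiv.coe_mulRight, hstable]
      rw [Finset.sum_comm, Finset.sum_congr rfl fun l _ => hinner l, Finset.sum_const,
        Finset.sum_const, Finset.card_univ, ← Nat.card_eq_fintype_card, nsmul_eq_mul,
        nsmul_eq_mul] at h2
      refine mul_left_cancel₀ hN0 (h2.symm.trans ?_)
      ring
    rw [hsum, ← Finset.mul_sum, havg, hy1]
    field_simp
  -- the two norm identities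
  have hE1 : e 1 = ∑ z, e z * conj (e z) := by
    rw [← he.idem 1]
    exact Finset.sum_congr rfl fun z _ => by rw [mul_one, he.star]
  have hF1 : F 1 = (Nat.card N : ℂ) / (Nat.card L : ℂ) * e 1 := by
    have hR1 : R 1 = Finset.univ.filter fun l : L => (l : G) ∈ N := by
      refine Finset.filter_congr fun l _ => ?_
      rw [one_mul]
      refine ⟨hLreg _ l.2, fun h hd' => hN (hd'.trans ?_)⟩
      have := orderOf_dvd_natCard (⟨_, h⟩ : N)
      rwa [← Subgroup.orderOf_coe] at this
    have hcard : (R 1).card = Nat.card N := by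
      rw [hR1, ← Fintype.card_subtype, ← Nat.card_eq_fintype_card]
      exact Nat.card_congr (Subgroup.subgroupOfEquivOfLe hNL).toEquiv
    rw [hFval 1 (by simpa using hp.ne_one), hcard]
  have hF1' : F 1 = ∑ z, F z * conj (e z) := by
    calc F 1 = ∑ l : L, idemFun (θL : L → ℂ) l * ∑ w, e w * e (w⁻¹ * ((l : G)⁻¹ * 1)) := by
          rw [hF, cvl]
          exact Finset.sum_congr rfl fun l _ => by rw [he.idem]
      _ = ∑ l : L, ∑ z, idemFun (θL : L → ℂ) l * e ((l : G)⁻¹ * z) * conj (e z) := by
          refine Finset.sum_congr rfl fun l _ => ?_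
          rw [Finset.mul_sum]
          refine Fintype.sum_equiv (Equiv.mulLeft (l : G)) _ _ fun w => ?_
          simp only [Equiv.coe_mulLeft, inv_mul_cancel_left, mul_one]
          rw [← he.star, mul_inv_rev]
          ring
      _ = _ := by
          rw [Finset.sum_comm]
          exact Finset.sum_congr rfl fun z _ => by rw [hF, cvl, Finset.sum_mul]
  have hkey : ∑ z, (((R z).card : ℂ) - Nat.card N) * (e z * conj (e z)) = 0 := by
    have h : ∑ z, ((R z).card : ℂ) * (e z * conj (e z)) = (Nat.card N : ℂ) * e 1 := by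
      have h1 := hF1'.symm.trans hF1
      have hterm : ∀ z, F z * conj (e z) =
          ((R z).card : ℂ) / (Nat.card L : ℂ) * e z * conj (e z) := by
        intro z
        by_cases hz : p ∣ orderOf z
        · simp [he.vanish z hz]
        · rw [hFval z hz]
      simp only [hterm] at h1
      rw [div_mul_eq_mul_div, eq_div_iff hL0, Finset.sum_mul] at h1
      rw [← h1]
      exact Finset.sum_congr rfl fun z _ => by field_simp
    simp only [sub_mul, Finset.sum_sub_distrib, ← Finset.mul_sum]
    rw [h, ← hE1, sub_self]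
  have hge : ∀ z, e z ≠ 0 → Nat.card N ≤ (R z).card := by
    intro z hz
    have hzreg : ¬ p ∣ orderOf z := fun h => hz (he.vanish z h)
    calc Nat.card N = (Finset.univ.image fun n : N => Subgroup.inclusion hNL n).card := by
          rw [Finset.card_image_of_injective _ (Subgroup.inclusion_injective hNL), Finset.card_univ,
            Nat.card_eq_fintype_card]
      _ ≤ _ := Finset.card_le_card fun l hl => by
          obtain ⟨n, -, rfl⟩ := Finset.mem_image.1 hl
          rw [hR, Finset.mem_filter]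
          refine ⟨Finset.mem_univ _, fun h => hzreg ?_⟩
          have h' := singular_mul hN h ⟨_, ‹N.Normal›.conj_mem _ (inv_mem n.2) z⟩
          simpa [mul_assoc] using h'
  -- so the support centralizes `L / N`
  have hReq : (R x).card = Nat.card N := by
    have hnn : ∀ z ∈ Finset.univ, (0 : ℝ) ≤ (((R z).card : ℝ) - Nat.card N) * Complex.normSq (e z) := by
      intro z _
      by_cases hz : e z = 0
      · simp [hz]
      · exact mul_nonneg (sub_nonneg.2 (by exact_mod_cast hge z hz)) (Complex.normSq_nonneg _)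
    have hsum0 : ∑ z, (((R z).card : ℝ) - Nat.card N) * Complex.normSq (e z) = 0 := by
      have h := hkey
      simp only [Complex.mul_conj] at h
      exact_mod_cast h
    have := (Finset.sum_eq_zero_iff_of_nonneg hnn).1 hsum0 x (Finset.mem_univ x)
    rcases mul_eq_zero.1 this with h | h
    · exact_mod_cast sub_eq_zero.1 h
    · exact absurd (Complex.normSq_eq_zero.1 h) hx
  have hxreg : ¬ p ∣ orderOf x := fun h => hx (he.vanish x h)
  have hRx : R x = Finset.univ.image fun n : N => Subgroup.inclusion hNL n := by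
    refine (Finset.eq_of_subset_of_card_le (fun l hl => ?_) ?_).symm
    · obtain ⟨n, -, rfl⟩ := Finset.mem_image.1 hl
      rw [hR, Finset.mem_filter]
      refine ⟨Finset.mem_univ _, fun h => hxreg ?_⟩
      have h' := singular_mul hN h ⟨_, ‹N.Normal›.conj_mem _ (inv_mem n.2) x⟩
      simpa [mul_assoc] using h'
    · rw [hReq, Finset.card_image_of_injective _ (Subgroup.inclusion_injective hNL),
        Finset.card_univ, Nat.card_eq_fintype_card]
  have hcent : (x : G ⧸ N) ∈ Subgroup.centralizer (Q : Set (G ⧸ N)) := by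
    refine Subgroup.mem_centralizer_iff.2 fun q hq => ?_
    obtain ⟨u, rfl⟩ := QuotientGroup.mk_surjective q
    have huL : u ∈ L := hq
    have hw : x⁻¹ * u * x * u⁻¹ ∈ L :=
      mul_mem (‹L.Normal›.conj_mem' u huL x) (inv_mem huL)
    have hmem : (⟨_, hw⟩ : L) ∈ R x := by
      rw [hR, Finset.mem_filter]
      refine ⟨Finset.mem_univ _, ?_⟩
      rw [show x * (x⁻¹ * u * x * u⁻¹) = u * x * u⁻¹ by group]
      exact fun h => hxreg (by rwa [← MulAut.conj_apply, MulEquiv.orderOf_eq] at h)
    rw [hRx, Finset.mem_image] at hmem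
    obtain ⟨n, -, hn⟩ := hmem
    have hwN : x⁻¹ * u * x * u⁻¹ ∈ N := by
      have h := congrArg Subtype.val hn
      rw [Subgroup.coe_inclusion] at h
      rw [← show ((n : N) : G) = x⁻¹ * u * x * u⁻¹ from h]
      exact n.2
    have := (QuotientGroup.eq_one_iff _).2 hwN
    simp only [QuotientGroup.mk_mul, QuotientGroup.mk_inv] at this
    rw [mul_inv_eq_one, mul_assoc, inv_mul_eq_iff_eq_mul] at this
    exact this
  refine hLreg x ?_ hxreg
  subst hNdef
  exact Constrained.centralizer_pCore_quotient_le hsolv hcent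

open CfsgLib.Chars.Induced in
/-- **The idempotents supported on the regular elements are local** (`p`-solvable groups). -/
theorem local_of_good [Fact p.Prime] (hM : IsPModular p M) :
    ∀ (n : ℕ) {G : Type u} [Group G] [Fintype G] (_ : Nat.card G ≤ n) (_ : IsPSolvable p G)
      {e : G → ℂ} (_ : Good p e) (x : G), MemLocalRing M (e x) := by
  intro n
  induction n with
  | zero => intro G _ _ h; exact absurd h (by have := Nat.card_pos (α := G); omega)
  | succ n ih =>
    intro G _ _ hcard hsolv e he x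
    classical
    have := isMaximal_of_isPModular hM
    have hzero : MemLocalRing M (0 : ℂ) := mem_localRing.1 (zero_mem _)
    -- a proper subgroup containing the support
    have hsub : ∀ (C : Subgroup G) (f : G → ℂ), C ≠ ⊤ → (∀ z, f z ≠ 0 → z ∈ C) →
        ∀ [Fintype C], Good p (fun c : C => f c) → ∀ z, MemLocalRing M (f z) := by
      intro C f hC hsupp _ hgood z
      by_cases hz : f z = 0
      · rw [hz]; exact hzero
      · have hlt : Nat.card C ≤ n := by
          have h1 : Nat.card C < Nat.card G :=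
            lt_of_le_of_ne (Subgroup.card_le_card_group C)
              (fun h => hC (C.eq_top_of_card_eq h))
          omega
        exact ih hlt (Constrained.IsPSolvable.subgroup hsolv C) hgood ⟨z, hsupp z hz⟩
    set N := pPrimeCore p G with hNdef
    letI := Fintype.ofFinite N
    have hN : ¬ p ∣ Nat.card N := Constrained.pPrimeCore_not_dvd
    rw [eq_sum_cvl (e := e) N x, ← mem_localRing]
    refine sum_mem fun θ _ => mem_localRing.2 ?_
    set f := cvl N (idemFun (θ : N → ℂ)) e with hf
    set T := inertia N (θ : N → ℂ) with hT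
    have hsupp : ∀ z, f z ≠ 0 → z ∈ T := fun z hz => by
      by_contra h
      exact hz (cvl_eq_zero_of_not_mem_inertia he θ h)
    letI := Fintype.ofFinite T
    have hgT : Good p (fun t : T => f t) := he.component hN θ T (fun t ht => ht) hsupp
    by_cases hTtop : T = ⊤
    swap
    · exact hsub T f hTtop hsupp hgT x
    -- `θ` is invariant
    have hinv : ∀ g : G, conjFun N g (θ : N → ℂ) = θ := fun g => by
      have : g ∈ T := hTtop ▸ Subgroup.mem_top g
      exact mem_inertia.1 this
    have hgood : Good p f :=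
      { class_fun := fun g h => by
          have := hgT.class_fun ⟨g, hTtop ▸ Subgroup.mem_top g⟩ ⟨h, hTtop ▸ Subgroup.mem_top h⟩
          simpa using this
        idem := conv_cvl he N _ (fun k => by rw [idemFun_conv, if_pos rfl])
        vanish := fun z hz => hgT.vanish ⟨z, hTtop ▸ Subgroup.mem_top z⟩
          (by rwa [Subgroup.orderOf_mk]) }
    by_cases hNtop : N = ⊤
    · refine hgood.local_of_not_dvd hM ?_ x
      rw [hNtop, Subgroup.card_top] at hN
      exact hN
    have hfix : ∀ z, cvl N (idemFun (θ : N → ℂ)) f z = f z := by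
      intro z
      simp only [hf, cvl, Finset.mul_sum]
      calc ∑ k : N, ∑ m : N, idemFun (θ : N → ℂ) k *
            (idemFun (θ : N → ℂ) m * e ((m : G)⁻¹ * ((k : G)⁻¹ * z)))
          = ∑ k : N, ∑ j : N,
              idemFun (θ : N → ℂ) k * idemFun (θ : N → ℂ) (k⁻¹ * j) * e ((j : G)⁻¹ * z) := by
            refine Finset.sum_congr rfl fun k _ => Fintype.sum_equiv (Equiv.mulLeft k) _ _ fun m => ?_
            simp only [Equiv.coe_mulLeft, inv_mul_cancel_left, Subgroup.coe_mul, mul_inv_rev,
              mul_assoc]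
        _ = _ := by
            rw [Finset.sum_comm]
            exact Finset.sum_congr rfl fun j _ => by
              rw [← Finset.sum_mul, idemFun_conv, if_pos rfl]
    exact hsub N f hNtop (fun z hz => eq_zero_of_not_mem_core hsolv hgood hNdef θ hinv hfix hz)
      (hgood.restrict N fun z hz => eq_zero_of_not_mem_core hsolv hgood hNdef θ hinv hfix hz) x

/-- **Osima's converse**: in a `p`-solvable group a set of irreducible characters whose
degree-weighted sum vanishes on the `p`-singular elements is a union of blocks. -/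
theorem mem_of_sameBlock [Fact p.Prime] (hM : IsPModular p M) (hsolv : IsPSolvable p G)
    (U : Finset (IrrCharacter G))
    (hU : ∀ x : G, p ∣ orderOf x → ∑ χ ∈ U, (χ : G → ℂ) 1 * (χ : G → ℂ) x = 0)
    {χ ψ : IrrCharacter G} (hχ : χ ∈ U) (h : SameBlock M (χ : G → ℂ) (ψ : G → ℂ)) : ψ ∈ U := by
  classical
  have := isMaximal_of_isPModular hM
  set e : G → ℂ := fun x => (Nat.card G : ℂ)⁻¹ * ∑ φ ∈ U, (φ : G → ℂ) 1 * (φ : G → ℂ) x with he
  have hG : (Nat.card G : ℂ) ≠ 0 := Nat.cast_ne_zero.2 Nat.card_pos.ne'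
  have hgood : Good p e :=
    { class_fun := fun g k => by
        simp only [he]
        congr 1
        exact Finset.sum_congr rfl fun φ _ => by rw [irrCharacter_conj]
      idem := fun x => by
        simp only [he]
        calc ∑ z, (Nat.card G : ℂ)⁻¹ * (∑ φ ∈ U, (φ : G → ℂ) 1 * (φ : G → ℂ) z) *
              ((Nat.card G : ℂ)⁻¹ * ∑ φ' ∈ U, (φ' : G → ℂ) 1 * (φ' : G → ℂ) (z⁻¹ * x))
            = (Nat.card G : ℂ)⁻¹ * ((Nat.card G : ℂ)⁻¹ * ∑ φ ∈ U, ∑ φ' ∈ U, (φ : G → ℂ) 1 *
                (φ' : G → ℂ) 1 * ∑ z, (φ : G → ℂ) z * (φ' : G → ℂ) (z⁻¹ * x)) := by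
              simp only [Finset.mul_sum, Finset.sum_mul]
              rw [Finset.sum_comm, Finset.sum_congr rfl fun φ _ => Finset.sum_comm, Finset.sum_comm]
              refine Finset.sum_congr rfl fun φ _ => Finset.sum_congr rfl fun φ' _ =>
                Finset.sum_congr rfl fun z _ => ?_
              ring
          _ = _ := by
              congr 1
              rw [Finset.mul_sum]
              refine Finset.sum_congr rfl fun φ hφ => ?_
              rw [Finset.sum_eq_single φ (fun φ' _ hne => by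
                rw [sum_irrCharacter_convolution, if_neg (Ne.symm hne), mul_zero])
                (fun hn => absurd hφ hn), sum_irrCharacter_convolution, if_pos rfl]
              field_simp [irrCharacter_one_ne_zero φ]
      vanish := fun x hx => by simp only [he, hU x hx, mul_zero] }
  have hloc : ∀ x, MemLocalRing M (e x) := fun x => local_of_good hM _ le_rfl hsolv hgood x
  -- the central characters at the idempotent
  have homega : ∀ φ : IrrCharacter G, ∑ C : ConjClasses G,
      e (Quotient.out C)⁻¹ * centralChar (φ : G → ℂ) (Quotient.out C) =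
        if φ ∈ U then 1 else 0 := by
    intro φ
    have h1 : ∑ g, e g⁻¹ * (φ : G → ℂ) g / (φ : G → ℂ) 1 = if φ ∈ U then 1 else 0 := by
      calc ∑ g, e g⁻¹ * (φ : G → ℂ) g / (φ : G → ℂ) 1
          = (Nat.card G : ℂ)⁻¹ / (φ : G → ℂ) 1 * ∑ φ' ∈ U, (φ' : G → ℂ) 1 *
              ∑ g, (φ : G → ℂ) g * (φ' : G → ℂ) g⁻¹ := by
            simp only [he, Finset.mul_sum, Finset.sum_mul, Finset.sum_div]
            rw [Finset.sum_comm]
            exact Finset.sum_congr rfl fun φ' _ => Finset.sum_congr rfl fun g _ => by ring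
        _ = _ := by
            rw [Finset.sum_congr rfl fun φ' _ => by rw [sum_irrCharacter_mul_inv φ φ']]
            simp only [mul_ite, mul_zero, Finset.sum_ite_eq]
            split_ifs
            · field_simp [irrCharacter_one_ne_zero φ]
            · simp
    rw [← h1]
    refine Eq.trans ?_ (Finset.sum_fiberwise_of_maps_to (s := (Finset.univ : Finset G))
      (g := ConjClasses.mk) (t := Finset.univ) (fun g _ => Finset.mem_univ _)
      (fun g => e g⁻¹ * (φ : G → ℂ) g / (φ : G → ℂ) 1))
    refine Finset.sum_congr rfl fun C _ => ?_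
    have hout : ConjClasses.mk (Quotient.out C) = C := Quotient.out_eq C
    have hcount : ((Finset.univ.filter fun g : G => ConjClasses.mk g = C).card : ℂ) =
        ((Subgroup.centralizer ({Quotient.out C} : Set G)).index : ℂ) := by
      rw [← card_conjugates, Nat.card_eq_fintype_card, Fintype.card_subtype]
      refine congrArg _ (congrArg Finset.card (Finset.filter_congr fun g _ => ?_))
      constructor
      · intro hg; exact ConjClasses.mk_eq_mk_iff_isConj.1 (hout.trans hg.symm)
      · intro hg; rw [← hout]; exact (ConjClasses.mk_eq_mk_iff_isConj.2 hg).symm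
    rw [Finset.sum_congr rfl (g := fun _ => e (Quotient.out C)⁻¹ *
      (φ : G → ℂ) (Quotient.out C) / (φ : G → ℂ) 1) fun g hg => ?_, Finset.sum_const, nsmul_eq_mul,
      hcount, centralChar]
    · ring
    · obtain ⟨c, hc⟩ := isConj_iff.1
        (ConjClasses.mk_eq_mk_iff_isConj.1 (hout.trans (Finset.mem_filter.1 hg).2.symm))
      rw [← hc, irrCharacter_conj, show (c * Quotient.out C * c⁻¹)⁻¹ =
        c * (Quotient.out C)⁻¹ * c⁻¹ by group, hgood.class_fun]
  by_contra hψ
  have hdiff : MemLocalIdeal M (∑ C : ConjClasses G, e (Quotient.out C)⁻¹ *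
      (centralChar (χ : G → ℂ) (Quotient.out C) - centralChar (ψ : G → ℂ) (Quotient.out C))) :=
    memLocalIdeal_sum _ fun C _ => memLocalIdeal_mul_left (hloc _) (h _)
  simp only [mul_sub, Finset.sum_sub_distrib, homega, if_pos hχ, if_neg hψ, sub_zero] at hdiff
  exact not_memLocalIdeal_one hdiff

end CfsgLib.Blocks.Osima
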